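import Cfsg.Agent.Lib.SporRecognition.CosetCert.Upper

/-!
Relations of a group of J₃ type: letters `0 = t`, `1 = a`, `2 = d`, `3 = w`, `4 = r`, with
`⟨t, a, d, w⟩ ≅ 2⁴:(3 × A₅)` and `r` in the centralizer of `a`.
-/

set_option autoImplicit false

namespace CfsgLib.J3Unique

/-- Words. -/
abbrev Wd := List (Fin 5 × Bool)

def Tl : Wd := [(0, true)]
def Al : Wd := [(1, true)]
def Ai : Wd := [(1, false)]
def Dl : Wd := [(2, true)]
def Di : Wd := [(2, false)]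
def Wl : Wd := [(3, true)]
def Rl : Wd := [(4, true)]

/-- `m`-th power of a word. -/
def wPow (w : Wd) (m : Nat) : Wd := (List.replicate m w).flatten

/-- The word of the central involution `z`. -/
def Zw : Wd := Dl ++ Wl ++ Dl ++ Wl ++ Di ++ Wl ++ Di
/-- An element of order three of `A₅` commuting with `r w`. -/
def U1 : Wd := Di ++ Wl ++ Dl ++ Wl ++ Di ++ Wl ++ Di
/-- Its inverse. -/
def U1i : Wd := Dl ++ Wl ++ Dl ++ Wl ++ Di ++ Wl ++ Dl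
/-- An element of order three of `A₅` commuting with `r d⁻¹ w d`. -/
def U2 : Wd := Dl ++ Wl ++ Dl ++ Wl ++ Di ++ Wl
/-- Its inverse. -/
def U2i : Wd := Wl ++ Dl ++ Wl ++ Di ++ Wl ++ Di

/-- The relations of `2⁴:(3 × A₅)`. -/
def baseW : List Wd :=
  [Tl ++ Tl, wPow Al 3, wPow (Tl ++ Al) 3, wPow Dl 3, Wl ++ Wl, wPow (Dl ++ Wl) 5,
    Al ++ Dl ++ Ai ++ Di, Al ++ Wl ++ Ai ++ Wl,
    wPow (Tl ++ Wl ++ Tl ++ Wl) 2, wPow (Tl ++ Wl ++ Al ++ Tl ++ Ai ++ Wl) 2,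
    Dl ++ Tl ++ Di ++ Al ++ Tl ++ Ai,
    Dl ++ Wl ++ Tl ++ Wl ++ Di ++ Wl ++ Ai ++ Tl ++ Al ++ Wl ++ Al ++ Tl ++ Ai]

/-- The relations involving `r`. -/
def extraW : List Wd :=
  [Rl ++ Rl, Rl ++ Al ++ Rl ++ Ai, wPow (Rl ++ Wl) 3, wPow (Rl ++ Di ++ Wl ++ Dl) 3,
    wPow (Rl ++ Tl) 4 ++ Zw, Rl ++ Zw ++ Rl ++ (Dl ++ Wl ++ Dl ++ Wl ++ Di ++ Wl ++ Di),
    Rl ++ Wl ++ U1 ++ Wl ++ Rl ++ U1i, Rl ++ Di ++ Wl ++ Dl ++ U2 ++ Di ++ Wl ++ Dl ++ Rl ++ U2i]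

/-- The relation for `(r d)⁴`. -/
def rdW (p : Nat) : Wd := wPow (Rl ++ Dl) 4 ++ wPow Ai p

/-- The inverse of `a u₁`. -/
def B1i : Wd := U1i ++ Ai
/-- The inverse of `a u₂`. -/
def B2i : Wd := U2i ++ Ai

/-- The relation `(r t w)^k = (a u₁)^j`. -/
def g1W (k j : Nat) : Wd := wPow (Rl ++ Tl ++ Wl) k ++ wPow B1i j
/-- The relation `(r a t w)⁴ = (a u₁)^j`. -/
def gpW (j : Nat) : Wd := wPow (Rl ++ Al ++ Tl ++ Wl) 4 ++ wPow B1i j
/-- The relation `(r a⁻¹ t w)⁴ = (a u₁)^j`. -/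
def gmW (j : Nat) : Wd := wPow (Rl ++ Ai ++ Tl ++ Wl) 4 ++ wPow B1i j
/-- The relation `(r t d⁻¹ w d)^k = (a u₂)^j`. -/
def g2W (k j : Nat) : Wd := wPow (Rl ++ Tl ++ Di ++ Wl ++ Dl) k ++ wPow B2i j

/-- The common relations followed by those of a case. -/
def allW (extra : List Wd) : List Wd := baseW ++ extraW ++ extra

/-- The subgroup words. -/
def subW : List Wd := [Tl, Al, Dl, Wl]

/-- The letters. -/
def lets : List (Fin 5 × Bool) :=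
  [(0, true), (1, true), (1, false), (2, true), (2, false), (3, true), (4, true)]

/-- The letters without the last one. -/
def lets4 : List (Fin 5 × Bool) :=
  [(0, true), (1, true), (1, false), (2, true), (2, false), (3, true)]

end CfsgLib.J3Unique
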