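import Cfsg.Agent.Lib.J3Unique.Setting
import Cfsg.Agent.Lib.J3Unique.Words
import Cfsg.Agent.Lib.J2Unique.Checks

/-!
The local data `2⁴:(3 × A₅)`: four elements `t, a, d, w` multiplying like affine maps of sixteen
points.
-/

set_option autoImplicit false
set_option linter.unusedSectionVars false
set_option maxRecDepth 100000
set_option Elab.async false

namespace CfsgLib.J3Unique

open CfsgLib.JankoThree CfsgLib.SporRecognition.CosetCert

/-- Linear parts of the letters. -/
def pA : Fin 16 → Fin 16 := ![0, 2, 3, 1, 8, 10, 11, 9, 12, 14, 15, 13, 4, 6, 7, 5]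
/-- Linear part of the third letter. -/
def pD : Fin 16 → Fin 16 := ![0, 2, 3, 1, 14, 12, 13, 15, 7, 5, 4, 6, 9, 11, 10, 8]
/-- Linear part of the fourth letter. -/
def pW : Fin 16 → Fin 16 := ![0, 4, 8, 12, 1, 5, 9, 13, 2, 6, 10, 14, 3, 7, 11, 15]

/-- Linear part of a letter and its inverse. -/
def letP (x : Fin 5 × Bool) (i : Fin 16) : Fin 16 :=
  match x.1, x.2 with
  | 1, true => pA i
  | 1, false => pA (pA i)
  | 2, true => pD i
  | 2, false => pD (pD i)
  | 3, _ => pW i
  | _, _ => i

/-- Translation part of a letter. -/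
def letV (x : Fin 5 × Bool) : Fin 16 := if x.1 = 0 then 1 else 0

/-- Linear part of a word. -/
def wdP (w : Wd) (i : Fin 16) : Fin 16 := w.foldr (fun x j => letP x j) i

/-- Translation part of a word. -/
def wdV (w : Wd) : Fin 16 := w.foldr (fun x v => ad (letV x) (letP x v)) 0

/-- Test whether a word in the first four letters is the identity. -/
def triv (w : Wd) : Bool := decide (wdV w = 0) && (List.finRange 16).all fun i => decide (wdP w i = i)

theorem base_triv : baseW.all triv = true := by decide +kernel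

universe u

/-- Four elements generating `2⁴:(3 × A₅)` and the complement `A₅`. -/
structure Local {G : Type u} [Group G] [Finite G] (d : Cen G) where
  g : Fin 5 → G
  g_zero : g 0 = d.t
  g_four : g 4 = 1
  eval : ∀ w : Wd, (∀ x ∈ w, x.1 ≠ 4) → (evalW g w = 1 ↔ triv w = true)
  A : alternatingGroup (Fin 5) →* G
  inj : Function.Injective A
  comm : ∀ y, A y * g 1 = g 1 * A y
  A_d : A J2Unique.dA = g 2
  A_w : A J2Unique.wA = g 3
  /-- Elements of `⟨t, a, d, w⟩` commuting with `a`. -/
  split : ∀ c : G, c ∈ Subgroup.closure (Set.range g) → c * g 1 = g 1 * c →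
    ∃ (k : Fin 3) (y : alternatingGroup (Fin 5)), c = g 1 ^ k.val * A y
  /-- Involutions of the complement do not give `(r t)⁴ = z`. -/
  four : ∀ y, y * y = 1 → (A y * g 0) ^ 4 = 1
  cent : ∀ k : G, (∀ i, k * g i = g i * k) → k = 1

/-- The group with involution `v` in the place of `t`. -/
theorem cen_at {G : Type u} [Group G] [Finite G] (d : Cen G) {v : G} (hv : v * v = 1) (hv1 : v ≠ 1) :
    ∃ d' : Cen G, d'.t = v := by
  obtain ⟨g, hg⟩ := isConj_iff.1 (d.isConj_t hv hv1)
  refine ⟨⟨v, orderOf_eq_prime (by rwa [pow_two]) hv1, (MulAut.conj g).toMonoidHom.comp d.φ,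
    (MulAut.conj g).injective.comp d.inj, ?_, d.one⟩, rfl⟩
  ext y
  simp only [MonoidHom.mem_range, MonoidHom.comp_apply, MulEquiv.coe_toMonoidHom,
    MulAut.conj_apply, Subgroup.mem_centralizer_singleton_iff]
  constructor
  · rintro ⟨p, rfl⟩
    rw [← hg, show g * d.φ p * g⁻¹ * (g * d.t * g⁻¹) = g * (d.φ p * d.t) * g⁻¹ by group,
      d.phi_comm]
    group
  · intro hy
    obtain ⟨p, hp⟩ := d.exists_phi (x := g⁻¹ * y * g) (by
      calc g⁻¹ * y * g * d.t = g⁻¹ * (y * (g * d.t * g⁻¹)) * g := by group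
        _ = g⁻¹ * (g * d.t * g⁻¹ * y) * g := by rw [hg, hy]
        _ = d.t * (g⁻¹ * y * g) := by group)
    exact ⟨p, by rw [hp]; group⟩

end CfsgLib.J3Unique
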