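import Cfsg.Agent.Lib.J3Unique.Words
import Cfsg.Agent.Lib.J3Unique.ModelData
import Cfsg.Agent.Lib.SporadicB.J3.Basic

/-!
The relations hold in `J₃` for five generators.
-/

set_option autoImplicit false
set_option maxRecDepth 100000
set_option Elab.async false

namespace CfsgLib.J3Unique

open Cfsg.Spor CfsgLib.SporRecognition.CosetCert Model

theorem tablesOK : TablesOK tabs 6156 := by
  refine tablesOK_of_checks (d := 13) fun a b => ?_
  fin_cases a <;> cases b <;> decide +kernel

/-- The five permutations. -/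
noncomputable def perm5 : Fin 5 → Equiv.Perm (Fin 6156) := tabPerm tablesOK

/-- The relations of the model. -/
def modelW : List Wd := allW [rdW 0, g1W 4 0, g2W 5 0]

theorem modelW_length : modelW.length = 23 := by decide +kernel

theorem rels_check_at : ∀ i < modelW.length,
    allBelow 13 6156 (fixStep (wordTabs tabs (modelW.getD i []))) = true := by
  rw [modelW_length]
  intro i hi
  interval_cases i <;> decide +kernel

theorem model_rels : ∀ w ∈ modelW, evalW perm5 w = 1 := by
  intro w hw
  obtain ⟨i, hi, rfl⟩ := List.getElem_of_mem hw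
  refine evalW_tabPerm_eq_one tablesOK fun u hu => ?_
  have h := rels_check_at i hi
  rw [List.getD_eq_getElem _ _ hi] at h
  exact trace_of_fixStep h u hu

theorem out_words : ∀ i < 2, allBelow 13 6156 (fun u =>
    Nat.beq (CfsgLib.SporadicB.J3.Data.tab i u) (trace (wordTabs tabs (outWords.getD i [])) u)) = true := by
  intro i hi
  interval_cases i <;> decide +kernel

theorem evalW_mem_closure {α M : Type*} [Group M] (f : α → M) (w : List (α × Bool)) :
    evalW f w ∈ Subgroup.closure (Set.range f) := by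
  rw [evalW_eq_prod]
  refine list_prod_mem fun g hg => ?_
  simp only [List.mem_map] at hg
  obtain ⟨⟨a, b⟩, -, rfl⟩ := hg
  have hm : f a ∈ Subgroup.closure (Set.range f) := Subgroup.subset_closure ⟨a, rfl⟩
  cases b
  · simpa using inv_mem hm
  · simpa using hm

universe v

variable {F : Type v} [Field F] [Fintype F] [CharP F 2] {ω : F} (hω : ω ^ 2 + ω + 1 = 0)

include hω in
/-- `J₃` as the group generated by the five permutations. -/
theorem exists_model : ∃ σ : J3 F ω →* Equiv.Perm (Fin 6156), Function.Injective σ ∧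
    σ.range ≤ Subgroup.closure (Set.range perm5) := by
  classical
  obtain ⟨φ, hker, htrans, -, htab, -⟩ := CfsgLib.SporadicB.J3.exists_phi (F := F) hω
  obtain ⟨hsimp, -⟩ := CfsgLib.SporadicB.J3.isJ3_quotient (F := F) hω
  haveI := hsimp
  obtain ⟨_, -, -, -, -, hc3⟩ := CfsgLib.SporadicB.J3.j3_main (F := F) hω
  obtain ⟨z, hzK, hzc, hzo, -⟩ := CfsgLib.SporadicB.J3.exists_scalar (F := F) hω
  have hcen : Subgroup.center (threeJ3 F ω) ≤ φ.ker := by
    have heq : Subgroup.zpowers z = Subgroup.center (threeJ3 F ω) :=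
      Subgroup.eq_of_le_of_card_ge (Subgroup.zpowers_le.2 hzc) (by rw [hc3, Nat.card_zpowers, hzo])
    rw [← heq, Subgroup.zpowers_le, hker]
    intro g
    rw [Subgroup.mem_center_iff.mp hzc g, mul_inv_cancel_right]
    exact hzK
  let σ : J3 F ω →* Equiv.Perm (Fin 6156) := QuotientGroup.lift _ φ hcen
  have hσinj : Function.Injective σ := by
    refine (MonoidHom.ker_eq_bot_iff σ).1
      (((inferInstance : σ.ker.Normal).eq_bot_or_eq_top).resolve_right fun htop => ?_)
    obtain ⟨y, hy⟩ := htrans 1
    have h1 : φ y = 1 :=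
      MonoidHom.mem_ker.1 (show (QuotientGroup.mk y : J3 F ω) ∈ σ.ker from htop ▸ Subgroup.mem_top _)
    rw [h1] at hy
    exact absurd (congrArg Fin.val hy) (by decide)
  refine ⟨σ, hσinj, ?_⟩
  choose g hgS hg using fun a : Fin 2 => CfsgLib.SporadicB.J3.mem_genSet_of (F := F) hω a a.2
  have hrange : σ.range = φ.range := by
    ext x
    constructor
    · rintro ⟨y, rfl⟩
      obtain ⟨y, rfl⟩ := QuotientGroup.mk_surjective y
      exact ⟨y, rfl⟩
    · rintro ⟨y, rfl⟩
      exact ⟨QuotientGroup.mk y, rfl⟩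
  have hgt : ∀ (a : Fin 2) (u : Fin 6156), ((φ (g a) u : Fin 6156) : Nat) =
      CfsgLib.SporadicB.J3.Data.tab a u := fun a u => htab a (g a) a.2 (hg a) u
  have hout : ∀ a : Fin 2, φ (g a) = evalW perm5 (outWords.getD a []) := fun a => by
    refine Equiv.ext fun u => Fin.ext ?_
    rw [hgt, perm5, evalW_tabPerm tablesOK]
    exact Nat.eq_of_beq_eq_true (allBelow_spec (out_words a a.2) u u.2)
  rw [hrange, MonoidHom.range_eq_map, ← CfsgLib.SporadicB.J3.closure_genSet (F := F) hω,
    MonoidHom.map_closure, Subgroup.closure_le]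
  rintro _ ⟨s, hs, rfl⟩
  obtain ⟨a, ha⟩ : ∃ a : Fin 2, ((s : GL F9 F) : Matrix F9 F9 F) =
      CfsgLib.SporadicB.J3.mat F ω (CfsgLib.SporadicB.J3.Data.gen a) := by
    rcases hs with h | h
    exacts [⟨0, h⟩, ⟨1, h⟩]
  have : φ s = φ (g a) := Equiv.ext fun u => Fin.ext (by rw [htab a s a.2 ha, hgt])
  rw [SetLike.mem_coe, this, hout]
  exact evalW_mem_closure _ _

end CfsgLib.J3Unique
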