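import Cfsg.Agent.Lib.SporadicB.J3Inv.Main
import Cfsg.Agent.Lib.JankoThreeLocal.Main
import Cfsg.Agent.Lib.SmallGroups.Order4080
import Cfsg.Agent.Lib.OrderDegrees.SL2Module

/-!
# A subgroup `SL(2,16):2` of the model of `J₃`

The stabiliser of a point in the action on 6156 points has order 8160. A two-colouring of one of
its suborbits, swapped by both generators, gives its subgroup of index two, which is simple.
-/

set_option autoImplicit false
set_option linter.style.haveILetI false
set_option linter.style.longLine false

open Subgroup

namespace CfsgLib.J3Unique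

open CfsgLib.SporadicB.J3Inv
open CfsgLib.SporRecognition.CosetCert (allBelow allBelow_spec allPow allPow_append BTree field)
open CfsgLib.SporadicB.J3 (allBelow_of_allPow)
open CfsgLib.SporadicB.J3.Data (perm0 perm1)

/-- The two colours on one suborbit of length 1360. -/
noncomputable def colT : BTree := (.node (.node (.node (.node (.node (.leaf 0x82a42020801400601040200600840000011280224180200045200208440800002018024105000001000020021000000441404024106200440042002410) (.leaf 0x4104408021028400620000022a0200000058020200820480200080180008002020000040000000100040400400041002500840000191088482000280020000)) (.node (.leaf 0x8184a0000900800620041048208040045001008800500a810010600480900a0000a424420000018080004020280200420112084400a204020101000008000028) (.leaf 0x2))) (.node (.node (.leaf 0x100008010048240040010005400005901128000820040180000050000000a000011200800928010028100000608200010101208009000000120a01108000000) (.leaf 0x680000a002002120000008001020802080000020240240002480054a600000004110000008000200100040004a00440100000000000858088280000288000002)) (.node (.leaf 0xa1410028108a410064000040008004412805000602000200100010110010005001242000002240080001040120002000400104080414810081001511000)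 (.leaf 0)))) (.node (.node (.node (.leaf 0x500184006800a50001002020082a00000085012056a0004020005010625114000040010008400100020400200110420208402044000004000000000001009018) (.leaf 0x2000204001000010100208020001008000004000101010046408000000010420010200000040000010000200000080208004008000800100080200000000008)) (.node (.leaf 0x2100000000040a0201020100908210000000510010100010206800900480100000042400100a0002400000001520104645088000140001000000842200008) (.leaf 0))) (.node (.node (.leaf 0x91020800910001181400000800100010000209000060180020104102020000000200040042202240042100410200000200042810418000000080021002000) (.leaf 0x400024201000010024005000104420480226000000400000218000010000100004088040010000908046600080242a082204008001002080000008040004a48)) (.node (.leaf 0x2024000000400000a401800100000000040a0250210008800200184020002820000800004240890802000220000a000110000200288800000220000000400102) (.leaf 0))))) (.node (.node (.node (.node (.leaf 0x2000080601400000001800020050410208000000000010011a09040200821201800001000088014840100100000000000280440144020008000400080442a000) (.leaf 0x20081200082000000004900020201010408082204100200111410000008001220090800004a00508220010249010000010080420100840821000048820008))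 (.node (.leaf 0x842000000229418008040200002000000005002008800002002100011001000008820200101090804a0100441010000010040404100804008022000100000000) (.leaf 0))) (.node (.node (.leaf 0x61102114080120001000060a001001000080080000208000410080282000100000014100006020240080600064040010080000000000100000006081000000) (.leaf 0x80498020020005104000011014a0040882a080800800444020280000000095008040020000204000002000801000000001000800208480a24010400)) (.node (.leaf 0x80510002080020004424444120080020012000289446000181880100040410101000054140000110004080080200120005000054000208080000800020012800) (.leaf 0)))) (.node (.node (.node (.leaf 0x2000200800814200000080410800002810002510900000a040020890208000000800208004010210400001000100841a004180000100000180001a0008820000) (.leaf 0x401092012800800014800a80101260400810120002010022082a4005060008000204100400200044000004041004200201400018005980220004080000011140)) (.node (.leaf 0x40080200016620004004490000204000062000000014000188020020004000000002200200044800000000000108400800020600240108080001080401024) (.leaf 0))) (.node (.node (.leaf 0x91010000002280000000800006000008000092021868020000220201400404040101428000400000002000000100002808000160000290000000000012101010)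 (.leaf 0x40040400000000800000200120100000040000904000000044800001000002001000400048040100004008000002540005000029450008004000000000108100)) (.node (.leaf 0x240000a0000a000040080000802041020004000000000000800020024400002110000002800080000800000200000000000102a20104002900008000004) (.leaf 0))))))

/-- The colour of a point. -/
noncomputable def col (j : Nat) : Nat := field (BTree.get colT (Nat.shiftRight j 8)) 2 (Nat.land j 255)

/-- The exchange of the two colours. -/
noncomputable def flip (c : Nat) : Nat := bif Nat.beq c 0 then 0 else Nat.sub 3 c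

/-- Both generators exchange the colours. -/
noncomputable def colStep (u : Nat) : Bool :=
  Nat.beq (col (perm0 u)) (flip (col u)) && Nat.beq (col (perm1 u)) (flip (col u)) &&
    Nat.beq (flip (flip (col u))) (col u)

theorem col_ok_0 : allPow 6156 colStep 11 0 = true := by decide +kernel
theorem col_ok_1 : allPow 6156 colStep 11 2048 = true := by decide +kernel
theorem col_ok_2 : allPow 6156 colStep 11 4096 = true := by decide +kernel
theorem col_ok_3 : allPow 6156 colStep 11 6144 = true := by decide +kernel

theorem col_ok : allBelow 13 6156 colStep = true :=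
  allBelow_of_allPow rfl (allPow_append (allPow_append col_ok_0 col_ok_1) (allPow_append col_ok_2 col_ok_3))

theorem col_two : col 2 = 1 := by decide +kernel

attribute [local irreducible] col colT

section abstract_

variable {X : Type*} [Group X] [Finite X]

/-- No subgroup of order 120 is normalised by an element of order 17 centralised by no element of order 5. -/
theorem card_ne_oneTwenty (hc : ∀ y x : X, orderOf y = 17 → orderOf x = 5 → ¬ Commute x y)
    (h17 : 17 ∣ Nat.card X) (K : Subgroup X) [K.Normal] : Nat.card K ≠ 120 := by
  intro hK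
  haveI : Fact (Nat.Prime 5) := ⟨by norm_num⟩
  haveI : Fact (Nat.Prime 17) := ⟨by norm_num⟩
  obtain ⟨Q⟩ := (inferInstance : Nonempty (Sylow 5 K))
  have hQ : Nat.card (Q : Subgroup K) = 5 := by
    simpa using SmallGroups.card_sylow_eq (a := 1) (m := 24) (by rw [hK]; norm_num) (by norm_num) Q
  set N := normalizer (((Q : Subgroup K).map K.subtype : Subgroup X) : Set X) with hNdef
  have hsup : N ⊔ K = ⊤ := Sylow.normalizer_sup_eq_top Q
  have hN17 : 17 ∣ Nat.card N := by
    have h1 : Nat.card X ∣ Nat.card N * Nat.card K := by
      have h3 := Subgroup.card_mul_index K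
      have h4 : K.index ∣ Nat.card N := by
        rw [← relIndex_top_right, ← hsup, relIndex_sup_right]
        exact relIndex_dvd_card K N
      rw [← h3, mul_comm]
      exact mul_dvd_mul_right h4 _
    rw [hK] at h1
    exact ((Nat.Prime.dvd_mul (by norm_num)).mp (h17.trans h1)).resolve_right (by norm_num)
  obtain ⟨y, hy⟩ := exists_prime_orderOf_dvd_card' (G := N) 17 hN17
  obtain ⟨x, hx⟩ := exists_prime_orderOf_dvd_card' (G := ↥((Q : Subgroup K).map K.subtype)) 5
    (by rw [Nat.card_congr ((Q : Subgroup K).equivMapOfInjective _ K.subtype_injective).toEquiv.symm, hQ])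
  have hcard5 : Nat.card ↥((Q : Subgroup K).map K.subtype) = 5 := by
    rw [Nat.card_congr ((Q : Subgroup K).equivMapOfInjective _ K.subtype_injective).toEquiv.symm, hQ]
  -- conjugation by `y` fixes the group of order five pointwise
  let a : MulAut ↥((Q : Subgroup K).map K.subtype) := Subgroup.normalizerMonoidHom _ y
  have hcy : Nat.card (MulAut ↥((Q : Subgroup K).map K.subtype)) = 4 := by
    haveI : IsCyclic ↥((Q : Subgroup K).map K.subtype) := isCyclic_of_prime_card hcard5
    rw [IsCyclic.card_mulAut, hcard5]
    decide
  have ha : a = 1 := by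
    have h1 : orderOf a ∣ 17 := hy ▸ orderOf_map_dvd _ y
    have h2 : orderOf a ∣ 4 := hcy ▸ orderOf_dvd_natCard a
    exact orderOf_eq_one_iff.mp (Nat.dvd_one.mp (Nat.dvd_gcd h1 h2))
  refine hc (y : X) (x : X) (by rw [Subgroup.orderOf_coe, hy]) (by rw [Subgroup.orderOf_coe, hx]) ?_
  have h := congrArg Subtype.val (DFunLike.congr_fun ha x)
  have h' : (y : X) * (x : X) * (y : X)⁻¹ = (x : X) := h
  exact (mul_inv_eq_iff_eq_mul.mp h').symm

/-- A group of order 4080 in which the Sylow 17-subgroups are self-centralizing and not normal is simple. -/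
theorem isSimpleGroup_of_seventeen (hX : Nat.card X = 4080)
    (hc : ∀ y : X, orderOf y = 17 → Nat.card (centralizer ({y} : Set X)) = 17)
    (hnn : ∀ P : Sylow 17 X, ¬ (P : Subgroup X).Normal) : IsSimpleGroup X := by
  haveI : Fact (Nat.Prime 17) := ⟨by norm_num⟩
  have hcomm : ∀ y x : X, orderOf y = 17 → orderOf x = 5 → ¬ Commute x y := by
    intro y x hy hx h
    have hm : x ∈ centralizer ({y} : Set X) := mem_centralizer_singleton_iff.mpr h.eq
    have := orderOf_dvd_natCard (⟨x, hm⟩ : centralizer ({y} : Set X))
    rw [← Subgroup.orderOf_coe, hx, hc y hy] at this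
    norm_num at this
  haveI : Nontrivial X := Finite.one_lt_card_iff_nontrivial.mp (by omega)
  refine ⟨fun M hM => ?_⟩
  by_contra hcon
  rw [not_or] at hcon
  obtain ⟨hb, ht⟩ := hcon
  haveI := hM
  have hMd : Nat.card M ∣ 4080 := hX ▸ M.card_subgroup_dvd_card
  have hM1 : Nat.card M ≠ 1 := fun h => hb (card_eq_one.mp h)
  have hMne : Nat.card M ≠ 4080 := fun h => ht (M.eq_top_of_card_eq (h.trans hX.symm))
  by_cases h17 : 17 ∣ Nat.card M
  · -- `M` contains all Sylow 17-subgroups
    obtain ⟨P⟩ := (inferInstance : Nonempty (Sylow 17 M))
    obtain ⟨m, hm⟩ := h17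
    have hm240 : m ∣ 240 := Nat.dvd_of_mul_dvd_mul_left (show 0 < 17 by norm_num) (by rw [← hm]; exact hMd)
    have hm17 : ¬ 17 ∣ m := fun h => by
      have := h.trans hm240
      norm_num at this
    have hPc : Nat.card (P : Subgroup M) = 17 := by
      simpa using SmallGroups.card_sylow_eq (a := 1) (by simpa using hm) hm17 P
    have hmod : Nat.card (Sylow 17 M) % 17 = 1 := card_sylow_modEq_one 17 M
    have hdvd : Nat.card (Sylow 17 M) ∣ m := by
      have h := P.card_dvd_index
      have h2 := (P : Subgroup M).card_mul_index
      rw [hPc, hm] at h2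
      rwa [Nat.eq_of_mul_eq_mul_left (by norm_num) h2] at h
    have hn : Nat.card (Sylow 17 M) = 120 := by
      have hmem : Nat.card (Sylow 17 M) ∈ (Nat.divisors 240).filter (fun d => d % 17 = 1) :=
        Finset.mem_filter.mpr ⟨Nat.mem_divisors.mpr ⟨hdvd.trans hm240, by norm_num⟩, hmod⟩
      rw [show (Nat.divisors 240).filter (fun d => d % 17 = 1) = {1, 120} by decide +kernel] at hmem
      simp only [Finset.mem_insert, Finset.mem_singleton] at hmem
      refine hmem.resolve_left fun h1 => ?_
      haveI : Subsingleton (Sylow 17 M) := (Nat.card_eq_one_iff_unique.mp h1).1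
      haveI : (P : Subgroup M).Characteristic := P.characteristic_of_subsingleton
      have hP17 : Nat.card ((P : Subgroup M).map M.subtype) = 17 := by
        rw [Nat.card_congr ((P : Subgroup M).equivMapOfInjective _ M.subtype_injective).toEquiv.symm, hPc]
      have hfac : (4080 : ℕ).factorization 17 = 1 := by
        rw [show (4080 : ℕ) = 17 * 240 by norm_num, Nat.factorization_mul (by norm_num) (by norm_num),
          Finsupp.add_apply, Nat.Prime.factorization_self (by norm_num),
          Nat.factorization_eq_zero_of_not_dvd (show ¬ 17 ∣ 240 by norm_num)]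
      let R : Sylow 17 X := Sylow.ofCard ((P : Subgroup M).map M.subtype) (by rw [hP17, hX, hfac, pow_one])
      exact hnn R (show ((P : Subgroup M).map M.subtype).Normal from inferInstance)
    have hm120 : m = 120 := by
      rw [hn] at hdvd
      rcases (show m = 120 ∨ m = 240 by
        have hle := Nat.le_of_dvd (by norm_num) hm240
        obtain ⟨k, rfl⟩ := hdvd
        omega) with h | h
      · exact h
      · exact absurd (by rw [hm, h]) hMne
    -- normal 17-complement
    have hidx : (P : Subgroup M).index = 120 := by
      have h2 := (P : Subgroup M).card_mul_index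
      rw [hPc, hm, hm120] at h2
      omega
    have hNP : Nat.card (normalizer ((P : Subgroup M) : Set M)) = 17 := by
      have h : Nat.card (Sylow 17 M) = (normalizer ((P : Subgroup M) : Set M)).index :=
        Sylow.card_eq_index_normalizer P
      have h2 := (normalizer ((P : Subgroup M) : Set M)).card_mul_index
      rw [← h, hn, hm, hm120] at h2
      omega
    have hle : normalizer ((P : Subgroup M) : Set M) ≤ centralizer ((P : Subgroup M) : Set M) := by
      rw [← Subgroup.eq_of_le_of_card_ge (le_normalizer (H := (P : Subgroup M))) (by rw [hNP, hPc])]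
      haveI : IsCyclic (P : Subgroup M) := isCyclic_of_prime_card hPc
      letI : CommGroup (P : Subgroup M) := IsCyclic.commGroup
      intro a ha b hb
      exact congrArg Subtype.val (mul_comm (⟨b, hb⟩ : (P : Subgroup M)) ⟨a, ha⟩)
    have hcompl := MonoidHom.ker_transferSylow_isComplement' P hle
    have hK : Nat.card (MonoidHom.transferSylow P hle).ker = 120 := by
      have := hcompl.card_mul_card
      rw [hPc, hm, hm120] at this
      omega
    refine card_ne_oneTwenty (X := M) ?_ ⟨120, by rw [hm, hm120]⟩ _ hK
    intro y x hy hx h
    exact hcomm y x (by rw [Subgroup.orderOf_coe, hy]) (by rw [Subgroup.orderOf_coe, hx])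
      (h.map M.subtype)
  · -- an element of order 17 acts fixed point freely
    obtain ⟨y, hy⟩ := exists_prime_orderOf_dvd_card' (G := X) 17 (by rw [hX]; norm_num)
    have hYp : IsPGroup 17 (Subgroup.zpowers y) :=
      IsPGroup.of_card (n := 1) (by rw [Nat.card_zpowers, hy, pow_one])
    let act : MulAction (Subgroup.zpowers y) M :=
      MulAction.compHom M ((MulAut.conjNormal (H := M)).comp (Subgroup.zpowers y).subtype)
    have hmodeq := hYp.card_modEq_card_fixedPoints M
    have hfix : Nat.card (MulAction.fixedPoints (Subgroup.zpowers y) M) = 1 := by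
      rw [Nat.card_eq_one_iff_unique]
      refine ⟨⟨fun a b => ?_⟩, ⟨⟨1, fun g => map_one (MulAut.conjNormal (H := M) (g : X))⟩⟩⟩
      have hone : ∀ c : MulAction.fixedPoints (Subgroup.zpowers y) M, ((c : M) : X) = 1 := by
        rintro ⟨c, hcf⟩
        have h1 : y * (c : X) * y⁻¹ = (c : X) := congrArg Subtype.val (hcf ⟨y, Subgroup.mem_zpowers y⟩)
        have hm : (c : X) ∈ centralizer ({y} : Set X) :=
          mem_centralizer_singleton_iff.mpr (mul_inv_eq_iff_eq_mul.mp h1).symm
        have h3 : orderOf (c : X) ∣ 17 := by
          have := orderOf_dvd_natCard (⟨_, hm⟩ : centralizer ({y} : Set X))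
          rwa [← Subgroup.orderOf_coe, hc y hy] at this
        have h4 : orderOf (c : X) ∣ Nat.card M := by rw [Subgroup.orderOf_coe]; exact orderOf_dvd_natCard c
        refine orderOf_eq_one_iff.mp (((Nat.dvd_prime (by norm_num : Nat.Prime 17)).mp h3).resolve_right
          fun e => h17 (e ▸ h4))
      exact Subtype.ext (Subtype.ext ((hone a).trans (hone b).symm))
    rw [hfix] at hmodeq
    have h240 : Nat.card M ∣ 240 := by
      have : (Nat.card M).Coprime 17 := ((Nat.Prime.coprime_iff_not_dvd (by norm_num)).mpr h17).symm
      exact this.dvd_of_dvd_mul_left (show Nat.card M ∣ 17 * 240 from hMd)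
    have hmem : Nat.card M ∈ (Nat.divisors 240).filter (fun d => d % 17 = 1) :=
      Finset.mem_filter.mpr ⟨Nat.mem_divisors.mpr ⟨h240, by norm_num⟩, hmodeq⟩
    rw [show (Nat.divisors 240).filter (fun d => d % 17 = 1) = {1, 120} by decide +kernel] at hmem
    simp only [Finset.mem_insert, Finset.mem_singleton] at hmem
    exact card_ne_oneTwenty hcomm (by rw [hX]; norm_num) M (hmem.resolve_left hM1)

end abstract_

section model

variable {G : Type*} [Group G] (S : Setup G)

/-- The stabiliser is generated by the two given elements. -/
theorem stab_eq_closure : S.stab = closure (Set.range S.k) := by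
  refine le_antisymm (fun x hx => ?_) ((closure_le _).mpr (by rintro _ ⟨a, rfl⟩; exact S.k_fix a))
  obtain ⟨j, hj⟩ := S.stab_bijective.2 ⟨x, hx⟩
  obtain ⟨-, x1, x2, -, -⟩ := (S.exists_kk j j.2).choose_spec
  rw [show (S.exists_kk j j.2).choose = x from congrArg Subtype.val hj] at x1 x2
  suffices h : ∀ i : Nat, i < 8160 → ∃ z ∈ closure (Set.range S.k), S.ψ z 0 = 0 ∧
      (S.ψ z ⟨4, by norm_num⟩ : Fin 6156).val = kk1 i ∧ (S.ψ z ⟨1, by norm_num⟩ : Fin 6156).val = kk2 i by
    obtain ⟨z, hz, z0, z1, z2⟩ := h j j.2
    have : x = z := S.key_injective (by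
      simp only [Setup.key, Prod.mk.injEq]
      exact ⟨by rw [show S.ψ x 0 = 0 from hx, z0], x1.trans z1.symm, x2.trans z2.symm⟩)
    rwa [this]
  intro i
  induction i using Nat.strongRecOn with
  | _ i ih =>
    intro hi
    have h := allBelow_spec k_ok i hi
    simp only [kStep, Bool.and_eq_true] at h
    have hb := h.1.1.1.1.1.1
    by_cases hi0 : i = 0
    · subst hi0
      simp only [Nat.beq_refl, cond_true, Bool.and_eq_true, Nat.beq_eq] at hb
      exact ⟨1, one_mem _, by simp, by simp [hb.1.1.1], by simp [hb.1.1.2]⟩
    rw [show Nat.beq i 0 = false from Bool.eq_false_iff.mpr fun e => hi0 (Nat.eq_of_beq_eq_true e), cond_false] at hb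
    simp only [Bool.and_eq_true, Nat.blt_eq, Nat.beq_eq] at hb
    obtain ⟨⟨⟨⟨⟨hv, hsrc⟩, h1⟩, h2⟩, -⟩, -⟩ := hb
    obtain ⟨z, hz, z0, z1, z2⟩ := ih _ hsrc (hsrc.trans hi)
    refine ⟨S.k ⟨kvia i, hv⟩ * z, mul_mem (subset_closure ⟨_, rfl⟩) hz, ?_, ?_, ?_⟩ <;>
      rw [map_mul, Equiv.Perm.mul_apply]
    · rw [z0, S.k_fix]
    · rw [S.k_tab, z1]; exact h1
    · rw [S.k_tab, z2]; exact h2

/-- The elements of the stabiliser keeping the colours. -/
def colStab : Subgroup S.stab where
  carrier := {x | ∀ u, col (S.ψ (x : G) u : Fin 6156) = col (u : Fin 6156)}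
  one_mem' := by simp
  mul_mem' := fun {a b} ha hb u => by
    rw [Subgroup.coe_mul, map_mul, Equiv.Perm.mul_apply, ha, hb]
  inv_mem' := fun {a} ha u => by
    rw [← ha, Subgroup.coe_inv, map_inv, Equiv.Perm.coe_inv, Equiv.apply_symm_apply]

theorem index_colStab : (colStab S).index = 2 := by
  have hc := fun u hu => allBelow_spec col_ok u hu
  simp only [colStep, Bool.and_eq_true] at hc
  have hk : ∀ (a : Fin 2) (u : Fin 6156), col (S.ψ (S.k a) u : Fin 6156) = flip (col u) := by
    intro a u
    rw [S.k_tab]
    fin_cases a
    · exact Nat.eq_of_beq_eq_true (hc u u.2).1.1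
    · exact Nat.eq_of_beq_eq_true (hc u u.2).1.2
  have hff : ∀ u : Fin 6156, flip (flip (col u)) = col u := fun u => Nat.eq_of_beq_eq_true (hc u u.2).2
  have key : ∀ x ∈ S.stab, (∀ u, col (S.ψ x u : Fin 6156) = col (u : Fin 6156)) ∨
      ∀ u, col (S.ψ x u : Fin 6156) = flip (col (u : Fin 6156)) := by
    intro x hx
    rw [stab_eq_closure] at hx
    induction hx using closure_induction with
    | mem y hy => obtain ⟨a, rfl⟩ := hy; exact Or.inr (hk a)
    | one => left; simp
    | mul a b _ _ ha hb =>
      rcases ha with ha | ha <;> rcases hb with hb | hb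
      · left; intro u; rw [map_mul, Equiv.Perm.mul_apply, ha, hb]
      · right; intro u; rw [map_mul, Equiv.Perm.mul_apply, ha, hb]
      · right; intro u; rw [map_mul, Equiv.Perm.mul_apply, ha, hb]
      · left; intro u; rw [map_mul, Equiv.Perm.mul_apply, ha, hb, hff]
    | inv a _ ha =>
      rcases ha with ha | ha
      · left; intro u
        rw [← ha, map_inv, Equiv.Perm.coe_inv, Equiv.apply_symm_apply]
      · right; intro u
        have h : flip (col ((S.ψ a).symm u : Fin 6156)) = col (u : Fin 6156) := by
          rw [← ha, Equiv.apply_symm_apply]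
        rw [← h, hff, map_inv, Equiv.Perm.coe_inv]
  have hnot : ∀ x : S.stab, (∀ u, col (S.ψ (x : G) u : Fin 6156) = flip (col (u : Fin 6156))) → x ∉ colStab S := by
    intro x hx hm
    have h1 := hx ⟨2, by norm_num⟩
    rw [hm ⟨2, by norm_num⟩] at h1
    simp only [col_two] at h1
    exact absurd h1 (by decide +kernel)
  rw [Subgroup.index_eq_two_iff]
  refine ⟨⟨S.k 0, S.k_fix 0⟩, fun b => ?_⟩
  rcases key b b.2 with hb | hb
  · refine Or.inr ⟨hb, hnot _ fun u => ?_⟩
    rw [Subgroup.coe_mul, map_mul, Equiv.Perm.mul_apply, hb, hk]
  · refine Or.inl ⟨fun u => ?_, hnot b hb⟩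
    rw [Subgroup.coe_mul, map_mul, Equiv.Perm.mul_apply, hb, hk, hff]

end model

universe v

open Cfsg.Spor in
/-- The model of `J₃` has a subgroup `SL(2,16):2`. -/
theorem exists_sl2_sixteen {F : Type v} [Field F] [Fintype F] [CharP F 2] {w : F} (hw : w ^ 2 + w + 1 = 0) :
    ∃ (H : Subgroup (J3 F w)) (N : Subgroup H) (K : Type) (_ : Field K) (_ : Fintype K),
      N.Normal ∧ N.index = 2 ∧ Fintype.card K = 16 ∧ Nonempty (N ≃* Matrix.SpecialLinearGroup (Fin 2) K) := by
  obtain ⟨hone, t, ht, Q, hQn, hQ, hQ32, -, -, ⟨e⟩⟩ :=
    CfsgLib.SporadicB.J3Inv.main (F := F) hw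
  obtain ⟨hsimp, hcard⟩ := CfsgLib.SporadicB.J3.isJ3_quotient (F := F) hw
  haveI := hsimp
  haveI := hQn
  obtain ⟨S⟩ := exists_setup (F := F) hw
  haveI : Fact (Nat.Prime 17) := ⟨by norm_num⟩
  have h17 := (CfsgLib.JankoThreeLocal.sylow_seventeen_nineteen hcard hone ht Q hQ hQ32 e).2
  have hidx := index_colStab S
  haveI hn : (colStab S).Normal := Subgroup.normal_of_index_eq_two hidx
  have hN : Nat.card (colStab S) = 4080 := by
    have := (colStab S).card_mul_index
    rw [hidx, S.card_stab] at this
    omega
  let ι : colStab S →* J3 F w := S.stab.subtype.comp (colStab S).subtype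
  have hι : Function.Injective ι := S.stab.subtype_injective.comp (colStab S).subtype_injective
  have hsyl : ∀ R : Subgroup (J3 F w), Nat.card R = 17 → ∃ Y : Sylow 17 (J3 F w), (Y : Subgroup (J3 F w)) = R := by
    intro R hR
    have hfac : (50232960 : ℕ).factorization 17 = 1 := by
      rw [show (50232960 : ℕ) = 17 * 2954880 by norm_num, Nat.factorization_mul (by norm_num) (by norm_num),
        Finsupp.add_apply, Nat.Prime.factorization_self (by norm_num),
        Nat.factorization_eq_zero_of_not_dvd (show ¬ 17 ∣ 2954880 by norm_num)]
    exact ⟨Sylow.ofCard R (by rw [hR, hcard, hfac, pow_one]), rfl⟩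
  have hc : ∀ y : colStab S, orderOf y = 17 → Nat.card (centralizer ({y} : Set (colStab S))) = 17 := by
    intro y hy
    have hy' : orderOf (ι y) = 17 := by rw [orderOf_injective ι hι, hy]
    obtain ⟨Y, hY⟩ := hsyl (zpowers (ι y)) (by rw [Nat.card_zpowers, hy'])
    have hC := (h17 Y).1
    rw [hY, zpowers_eq_closure, centralizer_closure, ← zpowers_eq_closure] at hC
    refine Nat.dvd_antisymm ?_ ?_
    · rw [← Nat.card_congr (Subgroup.equivMapOfInjective _ ι hι).toEquiv.symm]
      rw [← hy', ← Nat.card_zpowers]
      refine Subgroup.card_dvd_of_le ?_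
      rintro _ ⟨z, hz, rfl⟩
      rw [← hC]
      exact mem_centralizer_singleton_iff.mpr (by rw [← map_mul, ← map_mul, mem_centralizer_singleton_iff.mp hz])
    · have hm : y ∈ centralizer ({y} : Set (colStab S)) := mem_centralizer_singleton_iff.mpr rfl
      have := orderOf_dvd_natCard (⟨y, hm⟩ : centralizer ({y} : Set (colStab S)))
      rwa [← Subgroup.orderOf_coe, hy] at this
  have hnn : ∀ P : Sylow 17 (colStab S), ¬ (P : Subgroup (colStab S)).Normal := by
    intro P hP
    have hP17 : Nat.card (P : Subgroup (colStab S)) = 17 := by
      simpa using SmallGroups.card_sylow_eq (a := 1) (m := 240) (by rw [hN]; norm_num) (by norm_num) P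
    obtain ⟨Y, hY⟩ := hsyl ((P : Subgroup (colStab S)).map ι)
      (by rw [Nat.card_congr ((P : Subgroup (colStab S)).equivMapOfInjective _ hι).toEquiv.symm, hP17])
    obtain ⟨-, hYn, -, h8⟩ := h17 Y
    have hle : ι.range ≤ normalizer ((Y : Subgroup (J3 F w)) : Set (J3 F w)) := by
      rw [hY]
      have := Subgroup.le_normalizer_map (H := (P : Subgroup (colStab S))) ι
      rw [Subgroup.normalizer_eq_top_iff.mpr hP, ← MonoidHom.range_eq_map] at this
      exact this
    have hd := Subgroup.card_dvd_of_le hle
    rw [Nat.card_congr (MonoidHom.ofInjective hι).toEquiv.symm, hN, Subgroup.card_eq_card_quotient_mul_card_subgroup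
      ((Y : Subgroup (J3 F w)).subgroupOf (normalizer ((Y : Subgroup (J3 F w)) : Set (J3 F w)))), h8,
      Nat.card_congr (Subgroup.subgroupOfEquivOfLe le_normalizer).toEquiv, hY,
      Nat.card_congr ((P : Subgroup (colStab S)).equivMapOfInjective _ hι).toEquiv.symm, hP17] at hd
    norm_num at hd
  haveI : IsSimpleGroup (colStab S) := isSimpleGroup_of_seventeen hN hc hnn
  letI : Fintype (GaloisField 2 4) := Fintype.ofFinite _
  have hK : Fintype.card (GaloisField 2 4) = 16 := by
    rw [← Nat.card_eq_fintype_card, GaloisField.card 2 4 (by norm_num)]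
    norm_num
  obtain ⟨e'⟩ := SmallGroups.Order4080.nonempty_mulEquiv hN hK
  exact ⟨S.stab, colStab S, GaloisField 2 4, inferInstance, inferInstance, hn, hidx, hK,
    ⟨e'.trans (CfsgLib.OrderDegrees.psl2EquivSL2 (GaloisField 2 4))⟩⟩

end CfsgLib.J3Unique
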