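import Cfsg.Agent.Lib.J3Unique.SettingChecks

/-!
In a group with the involution centraliser `2^(1+4) : A₅` and one class of involutions: the
elementary abelian group `E = C(t) ∩ C(x)` of order `16`, its five lines, and permutations of `E`
induced by its normaliser.
-/

set_option autoImplicit false
set_option linter.unusedSectionVars false
set_option linter.style.haveILetI false
set_option maxRecDepth 100000
set_option Elab.async false

namespace CfsgLib.J3Unique

open CfsgLib.JankoThree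

universe u

variable {G : Type u} [Group G] [Finite G] (d : Cen G)

/-- The embedding of a code. -/
def el (n : ℕ) : G := d.φ (ofCode n)

theorem el_mul {a b : ℕ} (ha : a < 1920) (hb : b < 1920) : el d (cmul a b) = el d a * el d b := by
  show _ = d.φ _ * d.φ _
  rw [← map_mul, el, ← ofCode_code (ofCode a * ofCode b), code_mul, code_ofCode ha, code_ofCode hb]

theorem el_inj {a b : ℕ} (ha : a < 1920) (hb : b < 1920) (h : el d a = el d b) : a = b := by
  rw [← code_ofCode ha, ← code_ofCode hb, d.inj h]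

theorem el_code (p : K) : el d (code p) = d.φ p := by rw [el, ofCode_code]

theorem el_zero : el d 0 = 1 := by
  rw [show (0 : ℕ) = code 1 from rfl, el_code, map_one]

theorem el_kz : el d 16 = d.t := by
  rw [show (16 : ℕ) = code kz from rfl, el_code, d.phi_kz]

theorem el_comm (n : ℕ) : el d n * d.t = d.t * el d n := d.phi_comm _

theorem exists_el {g : G} (hg : g * d.t = d.t * g) : ∃ n, n < 1920 ∧ el d n = g := by
  obtain ⟨p, rfl⟩ := d.exists_phi hg
  exact ⟨code p, code_lt p, el_code d p⟩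

/-- The elements of `E`. -/
def ee (i : Fin 16) : G := el d (cE i)

theorem ee_mul (i j : Fin 16) : ee d i * ee d j = ee d (ad i j) := by
  rw [ee, ee, ← el_mul d (cE_lt i) (cE_lt j), cE_mul]
  rfl

theorem ee_zero : ee d 0 = 1 := el_zero d

theorem ee_one : ee d 1 = d.t := el_kz d

theorem ee_inj {i j : Fin 16} (h : ee d i = ee d j) : i = j :=
  cE_inj i j (el_inj d (cE_lt i) (cE_lt j) h)

theorem ee_sq (i : Fin 16) : ee d i * ee d i = 1 := by
  rw [ee_mul, (ad_facts i i).1, ee_zero]

theorem ee_inv (i : Fin 16) : (ee d i)⁻¹ = ee d i := inv_eq_of_mul_eq_one_right (ee_sq d i)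

theorem ee_comm (i j : Fin 16) : ee d i * ee d j = ee d j * ee d i := by
  rw [ee_mul, ee_mul, (ad_facts i j).2.2.2.1]

/-- The centraliser of `t` and `x` is `E`. -/
theorem exists_ee {g : G} (h1 : g * d.t = d.t * g) (h2 : g * ee d 4 = ee d 4 * g) :
    ∃ i, ee d i = g := by
  obtain ⟨n, hn, rfl⟩ := exists_el d h1
  obtain ⟨i, hi⟩ := cE_cent ⟨n, hn⟩ (el_inj d (by
    have := code_lt (ofCode n * ofCode 96)
    rwa [code_mul, code_ofCode hn, code_ofCode (by norm_num)] at this) (by
    have := code_lt (ofCode 96 * ofCode n)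
    rwa [code_mul, code_ofCode hn, code_ofCode (by norm_num)] at this) (by
    rw [el_mul d hn (by norm_num), el_mul d (by norm_num) hn]
    exact h2))
  exact ⟨i, congrArg (el d) hi⟩

theorem cent_E {g : G} (h : ∀ i, g * ee d i = ee d i * g) : ∃ i, ee d i = g :=
  exists_ee d (by rw [← ee_one]; exact h 1) (h 4)

/-- Conjugates of the pair `(t, x)`. -/
def Good (u v : G) : Prop := ∃ g : G, g * d.t * g⁻¹ = u ∧ g * ee d 4 * g⁻¹ = v

theorem good_conj {u v : G} (g : G) (h : Good d u v) : Good d (g * u * g⁻¹) (g * v * g⁻¹) := by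
  obtain ⟨k, h1, h2⟩ := h
  exact ⟨g * k, by rw [← h1]; group, by rw [← h2]; group⟩

theorem good_t {v : G} (hv : v * v = 1) (hc : v * d.t = d.t * v) :
    Good d d.t v ↔ ∀ n, n < 1920 → el d n = v → 32 ≤ n := by
  constructor
  · rintro ⟨g, h1, h2⟩ n hn hnv
    obtain ⟨p, rfl⟩ := d.exists_phi (mul_inv_eq_iff_eq_mul.1 h1)
    rw [← hnv, ee, el, el, ← map_inv, ← map_mul, ← map_mul] at h2
    have h3 := d.inj h2
    by_contra hlt
    have hr : (ofCode n).right = 1 := A.ext (Fin.ext (by
      show (Fin.ofNat 60 (n / 32)).val = 0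
      simp [Nat.div_eq_of_lt (not_le.1 hlt)]))
    have hx : (ofCode (cE 4)).right = 1 := by
      have h4 := congrArg SemidirectProduct.right h3
      rw [SemidirectProduct.mul_right, SemidirectProduct.mul_right, SemidirectProduct.inv_right, hr,
        mul_inv_eq_one, mul_eq_left] at h4
      exact h4
    have := congrArg (fun y : A => y.val.val) hx
    revert this
    decide +kernel
  · intro h
    obtain ⟨n, hn, rfl⟩ := exists_el d hc
    have h32 := h n hn rfl
    have hsq : cmul n n = 0 := el_inj d (by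
      have := code_lt (ofCode n * ofCode n)
      rwa [code_mul, code_ofCode hn] at this) (by norm_num)
      (by rw [el_mul d hn hn, el_zero, hv])
    have hty : ty (ofCode n) = ty (ofCode (cE 4)) := by
      refine Fin.ext ?_
      rw [ty_val, ty_val, code_ofCode hn, code_ofCode (cE_lt 4)]
      exact outside_class ⟨n, hn⟩ h32 hsq
    obtain ⟨k, hk⟩ := exists_conj_rep (ofCode n)
    obtain ⟨k', hk'⟩ := exists_conj_rep (ofCode (cE 4))
    refine ⟨d.φ (k * k'⁻¹), mul_inv_eq_iff_eq_mul.2 (d.phi_comm _), ?_⟩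
    rw [hty] at hk
    show _ * d.φ (ofCode (cE 4)) * _ = d.φ (ofCode n)
    rw [← map_inv, ← map_mul, ← map_mul, ← hk]
    refine congrArg d.φ ?_
    nth_rewrite 1 [← hk']
    group

theorem good_one (i : Fin 16) : Good d (ee d 1) (ee d i) ↔ line i ≠ 4 := by
  rw [ee_one, good_t d (ee_sq d i) (by rw [← ee_one]; exact ee_comm d i 1), ne_eq, ← cE_lt_iff]
  exact ⟨fun h hlt => absurd (h _ (cE_lt i) rfl) (not_le.2 hlt), fun h n hn e => by
    rw [el_inj d hn (cE_lt i) e]; exact not_lt.1 h⟩

/-- `p` is induced by the normaliser of `E`. -/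
def InH (p : Fin 16 → Fin 16) : Prop := ∃ n : G, ∀ i, n * ee d i * n⁻¹ = ee d (p i)

theorem inH_hT (h : Fin 12) : InH d (hT h) := by
  obtain ⟨h1, h2⟩ := hCode_check h
  refine ⟨el d (hCode h), fun i => mul_inv_eq_iff_eq_mul.2 ?_⟩
  rw [ee, ee, ← el_mul d h1 (cE_lt i), h2, el_mul d (cE_lt _) h1]

theorem InH.comp {p q : Fin 16 → Fin 16} (hp : InH d p) (hq : InH d q) : InH d (p ∘ q) := by
  obtain ⟨n, hn⟩ := hp
  obtain ⟨m, hm⟩ := hq
  exact ⟨n * m, fun i => by
    rw [show n * m * ee d i * (n * m)⁻¹ = n * (m * ee d i * m⁻¹) * n⁻¹ by group, hm, hn]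
    rfl⟩

theorem InH.inj {p : Fin 16 → Fin 16} (hp : InH d p) : Function.Injective p := by
  obtain ⟨n, hn⟩ := hp
  intro i j e
  exact ee_inj d (mul_left_cancel (mul_right_cancel ((hn i).trans ((congrArg (ee d) e).trans (hn j).symm))))

theorem InH.add {p : Fin 16 → Fin 16} (hp : InH d p) (i j : Fin 16) :
    p (ad i j) = ad (p i) (p j) := by
  obtain ⟨n, hn⟩ := hp
  refine ee_inj d ?_
  rw [← hn, ← ee_mul, ← ee_mul, ← hn, ← hn]
  group

theorem InH.zero {p : Fin 16 → Fin 16} (hp : InH d p) : p 0 = 0 := by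
  have := hp.add d 0 0
  rwa [(ad_facts 0 0).1, (ad_facts (p 0) 0).1] at this

theorem InH.good {p : Fin 16 → Fin 16} (hp : InH d p) (i j : Fin 16)
    (h : Good d (ee d i) (ee d j)) : Good d (ee d (p i)) (ee d (p j)) := by
  obtain ⟨n, hn⟩ := hp
  rw [← hn, ← hn]
  exact good_conj d n h

theorem InH.symm {p : Fin 16 → Fin 16} (hp : InH d p) :
    ∃ q, InH d q ∧ (∀ i, p (q i) = i) ∧ ∀ i, q (p i) = i := by
  have hb : Function.Bijective p := Finite.injective_iff_bijective.1 (hp.inj d)
  obtain ⟨n, hn⟩ := hp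
  let f := Equiv.ofBijective p hb
  refine ⟨f.symm, ⟨n⁻¹, fun i => ?_⟩, fun i => f.apply_symm_apply i, fun i => f.symm_apply_apply i⟩
  rw [inv_inv, ← f.apply_symm_apply i, f.symm_apply_apply,
    show ee d (f (f.symm i)) = ee d (p (f.symm i)) from rfl, ← hn]
  group

theorem exists_good {i : Fin 16} (hi : i ≠ 0) : ∃ j, Good d (ee d i) (ee d j) := by
  by_contra hno
  have h1 : ee d i ≠ 1 := fun e => hi (ee_inj d (e.trans (ee_zero d).symm))
  obtain ⟨g, hg⟩ := isConj_iff.1 (d.isConj_t (ee_sq d i) h1).symm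
  have hcode : ∀ j, ∃ n, n < 32 ∧ el d n = g * ee d j * g⁻¹ := by
    intro j
    have hc : g * ee d j * g⁻¹ * d.t = d.t * (g * ee d j * g⁻¹) := by
      rw [← hg, show g * ee d j * g⁻¹ * (g * ee d i * g⁻¹) = g * (ee d j * ee d i) * g⁻¹ by group,
        ee_comm]
      group
    obtain ⟨n, hn, hne⟩ := exists_el d hc
    refine ⟨n, ?_, hne⟩
    by_contra hlt
    refine hno ⟨j, ?_⟩
    have hsq : g * ee d j * g⁻¹ * (g * ee d j * g⁻¹) = 1 := by
      rw [show g * ee d j * g⁻¹ * (g * ee d j * g⁻¹) = g * (ee d j * ee d j) * g⁻¹ by group, ee_sq,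
        mul_one, mul_inv_cancel]
    have hgood : Good d d.t (g * ee d j * g⁻¹) := (good_t d hsq hc).2 fun m hm e => by
      rw [el_inj d hm hn (e.trans hne.symm)]; exact not_lt.1 hlt
    have := good_conj d g⁻¹ hgood
    rwa [show g⁻¹ * (g * ee d j * g⁻¹) * g⁻¹⁻¹ = ee d j by group,
      show g⁻¹ * d.t * g⁻¹⁻¹ = ee d i by rw [← hg]; group] at this
  choose c hc hce using hcode
  have hlt : ∀ j, c j < 1920 := fun j => (hc j).trans (by norm_num)
  have hmul : ∀ j k, el d (c j) * el d (c k) = el d (c (ad j k)) := fun j k => by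
    rw [hce, hce, hce, ← ee_mul]; group
  have hcm : ∀ j k, cmul (c j) (c k) = c (ad j k) := fun j k => el_inj d (by
    have := code_lt (ofCode (c j) * ofCode (c k))
    rwa [code_mul, code_ofCode (hlt j), code_ofCode (hlt k)] at this) (hlt _)
    (by rw [el_mul d (hlt j) (hlt k), hmul])
  have hinj : ∀ j k, c j = c k → j = k := fun j k e => ee_inj d (by
    have := (hce j).symm.trans ((congrArg (el d) e).trans (hce k))
    exact mul_left_cancel (mul_right_cancel this))
  have h0 : c 0 = 0 := el_inj d (hlt 0) (by norm_num) (by rw [hce, ee_zero, el_zero]; group)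
  have hs : ∀ j, cmul (c j) (c j) = 0 := fun j => by rw [hcm, (ad_facts j j).1, h0]
  have hco : ∀ j k, cmul (c j) (c k) = cmul (c k) (c j) := fun j k => by
    rw [hcm, hcm, (ad_facts j k).2.2.2.1]
  rcases no_eight ⟨c 1, hc 1⟩ ⟨c 2, hc 2⟩ ⟨c 4, hc 4⟩ (hs 1) (hs 2) (hs 4) (hco 1 2) (hco 1 4)
    (hco 2 4) with e | e | e | e | e | e | e
  · exact absurd (hinj 1 0 (e.trans h0.symm)) (by decide)
  · exact absurd (hinj 2 0 (e.trans h0.symm)) (by decide)
  · exact absurd (hinj 1 2 (congrArg Fin.val e)) (by decide)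
  · exact absurd (hinj 4 0 (e.trans h0.symm)) (by decide)
  · exact absurd (hinj 4 1 (congrArg Fin.val e)) (by decide)
  · exact absurd (hinj 4 2 (congrArg Fin.val e)) (by decide)
  · exact absurd (hinj 4 (ad 1 2) (e.trans (hcm 1 2))) (by decide +kernel)

/-- The normaliser is transitive on `E ∖ 1`. -/
theorem exists_inH {i : Fin 16} (hi : i ≠ 0) : ∃ p, InH d p ∧ p 1 = i := by
  obtain ⟨j, g, h1, h2⟩ := exists_good d hi
  have hin : ∀ k, ∃ l, ee d l = g⁻¹ * ee d k * g := fun k => by
    refine exists_ee d ?_ ?_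
    · calc g⁻¹ * ee d k * g * d.t = g⁻¹ * (ee d k * (g * d.t * g⁻¹)) * g := by group
        _ = g⁻¹ * (g * d.t * g⁻¹ * ee d k) * g := by rw [h1, ee_comm]
        _ = d.t * (g⁻¹ * ee d k * g) := by group
    · calc g⁻¹ * ee d k * g * ee d 4 = g⁻¹ * (ee d k * (g * ee d 4 * g⁻¹)) * g := by group
        _ = g⁻¹ * (g * ee d 4 * g⁻¹ * ee d k) * g := by rw [h2, ee_comm]
        _ = ee d 4 * (g⁻¹ * ee d k * g) := by group
  choose q hq using hin
  have hqi : Function.Injective q := fun a b e => ee_inj d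
    (mul_left_cancel (mul_right_cancel ((hq a).symm.trans ((congrArg (ee d) e).trans (hq b)))))
  let f := Equiv.ofBijective q (Finite.injective_iff_bijective.1 hqi)
  have hp : ∀ k, g * ee d k * g⁻¹ = ee d (f.symm k) := fun k => by
    nth_rewrite 1 [← f.apply_symm_apply k]
    rw [show ee d (f (f.symm k)) = ee d (q (f.symm k)) from rfl, hq]
    group
  refine ⟨f.symm, ⟨g, hp⟩, ee_inj d ?_⟩
  rw [← hp, ee_one, h1]

/-- The points `j ≠ i` with `(i, j)` not good, and `i` itself, form the line of `i`. -/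
theorem good_iff (i j : Fin 16) (hi : i ≠ 0) (hj : j ≠ 0) :
    Good d (ee d i) (ee d j) ↔ line i ≠ line j := by
  classical
  let R : Fin 16 → Fin 16 → Prop := fun i j => i ≠ 0 ∧ j ≠ 0 ∧ ¬ Good d (ee d i) (ee d j)
  have hRinv : ∀ p, InH d p → ∀ i j, R i j → R (p i) (p j) := by
    intro p hp i j ⟨h1, h2, h3⟩
    have hz := hp.zero d
    refine ⟨fun e => h1 (hp.inj d (e.trans hz.symm)), fun e => h2 (hp.inj d (e.trans hz.symm)),
      fun hg => h3 ?_⟩
    obtain ⟨q, hq, -, hqp⟩ := hp.symm d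
    have := hq.good d _ _ hg
    rwa [hqp, hqp] at this
  have hR1 : ∀ j, R 1 j ↔ (j = 1 ∨ j = 2 ∨ j = 3) := by
    intro j
    constructor
    · rintro ⟨-, hj, hg⟩
      rw [good_one, not_not, line_four] at hg
      rcases hg with e | e
      · exact absurd e hj
      · exact e
    · intro h
      refine ⟨by decide, by rcases h with rfl | rfl | rfl <;> decide, ?_⟩
      rw [good_one, not_not, line_four]
      exact Or.inr h
  -- the class of any point is the image of that of `1`
  have hRp : ∀ p, InH d p → ∀ j, R (p 1) j ↔ (j = p 1 ∨ j = p 2 ∨ j = p 3) := by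
    intro p hp j
    obtain ⟨q, hq, hpq, hqp⟩ := hp.symm d
    constructor
    · intro h
      have := hRinv q hq _ _ h
      rw [hqp] at this
      rcases (hR1 _).1 this with e | e | e <;> [left; (right; left); (right; right)] <;>
        rw [← e, hpq]
    · rintro (e | e | e) <;> subst e
      exacts [hRinv p hp 1 1 ((hR1 1).2 (Or.inl rfl)),
        hRinv p hp 1 2 ((hR1 2).2 (Or.inr (Or.inl rfl))),
        hRinv p hp 1 3 ((hR1 3).2 (Or.inr (Or.inr rfl)))]
  have hplane : ∀ i, i ≠ 0 → ∃ q, R i q ∧ q ≠ i ∧ ∀ j, R i j ↔ (j = i ∨ j = q ∨ j = ad i q) := by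
    intro i hi
    obtain ⟨p, hp, rfl⟩ := exists_inH d hi
    refine ⟨p 2, (hRp p hp _).2 (Or.inr (Or.inl rfl)), fun e => absurd (hp.inj d e) (by decide),
      fun j => ?_⟩
    rw [hRp p hp, ← hp.add d, show ad 1 2 = 3 from rfl]
  have hR2 : ∀ j, R 2 j ↔ (j = 1 ∨ j = 2 ∨ j = 3) := by
    obtain ⟨q, hq, hq2, hiff⟩ := hplane 2 (by decide)
    have hh := hRinv _ (inH_hT d 4) _ _ hq
    rw [show hT 4 2 = 2 from rfl, hiff] at hh
    have hq13 : q = 1 ∨ q = 3 := by
      refine plane_two q hq.2.1 hq2 ?_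
      rcases hh with e | e | e
      · exact absurd ((inH_hT d 4).inj d (e.trans (show (2 : Fin 16) = hT 4 2 from rfl))) hq2
      · exact Or.inl e
      · exact Or.inr e
    intro j
    rw [hiff]
    rcases hq13 with rfl | rfl
    · rw [show ad 2 1 = 3 from rfl]; tauto
    · rw [show ad 2 3 = 1 from rfl]; tauto
  have hR3 : ∀ j, R 3 j ↔ (j = 1 ∨ j = 2 ∨ j = 3) := by
    obtain ⟨q, hq, hq2, hiff⟩ := hplane 3 (by decide)
    have hh := hRinv _ (inH_hT d 4) _ _ hq
    rw [show hT 4 3 = 3 from rfl, hiff] at hh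
    have hq12 : q = 1 ∨ q = 2 := plane_three q hq.2.1 hq2 hh
    intro j
    rw [hiff]
    rcases hq12 with rfl | rfl
    · rw [show ad 3 1 = 2 from rfl]; tauto
    · rw [show ad 3 2 = 1 from rfl]; tauto
  -- classes of related points agree
  have hsame : ∀ i k, R i k → ∀ j, R k j ↔ R i j := by
    intro i k h j
    obtain ⟨p, hp, rfl⟩ := exists_inH d h.1
    obtain ⟨q, hq, hpq, hqp⟩ := hp.symm d
    have e : ∀ a b, R (p a) b ↔ R a (q b) := fun a b =>
      ⟨fun hh => by have := hRinv q hq _ _ hh; rwa [hqp] at this,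
        fun hh => by have := hRinv p hp _ _ hh; rwa [hpq] at this⟩
    rcases (hRp p hp k).1 h with rfl | rfl | rfl
    · rfl
    · rw [e, hR2, e, hR1]
    · rw [e, hR3, e, hR1]
  have hpart : ∀ i k l, R i l → R k l → ∀ j, R i j ↔ R k j := fun i k l h1 h2 j =>
    ((hsame i l h1 j).symm).trans (hsame k l h2 j)
  -- the class of `4`
  obtain ⟨q, hq, hq4, hiff⟩ := hplane 4 (by decide)
  have hoff : ∀ j, R 4 j → line j ≠ 4 := fun j h hl => by
    rcases (line_four j).1 hl with rfl | rfl | rfl | rfl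
    · exact h.2.1 rfl
    all_goals
      have := (hsame 4 _ h 4).2 ((hiff 4).2 (Or.inl rfl))
      first
        | exact absurd ((hR1 4).1 this) (by decide)
        | exact absurd ((hR2 4).1 this) (by decide)
        | exact absurd ((hR3 4).1 this) (by decide)
  have hq812 : q = 8 ∨ q = 12 := by
    refine plane_four q (hoff q hq) hq4 (hoff _ ((hiff _).2 (Or.inr (Or.inr rfl)))) fun h hh => ?_
    have hmem : ∀ j, j ∈ [4, q, ad 4 q] ↔ R 4 j := fun j => by rw [hiff]; simp
    have himg : ∀ j, R 4 j → R (hT h 4) (hT h j) := fun j hj => hRinv _ (inH_hT d h) _ _ hj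
    simp only [hmem] at hh ⊢
    have hl : ∃ l, R 4 l ∧ R (hT h 4) l := by
      rcases hh with e | e | e
      exacts [⟨_, e, himg 4 ((hiff 4).2 (Or.inl rfl))⟩, ⟨_, e, himg q hq⟩,
        ⟨_, e, himg _ ((hiff _).2 (Or.inr (Or.inr rfl)))⟩]
    obtain ⟨l, hl1, hl2⟩ := hl
    have := hpart 4 (hT h 4) l hl1 hl2
    exact ⟨(this _).2 (himg 4 ((hiff 4).2 (Or.inl rfl))), (this _).2 (himg q hq),
      (this _).2 (himg _ ((hiff _).2 (Or.inr (Or.inr rfl))))⟩
  have hR4 : ∀ j, R 4 j ↔ (j = 4 ∨ j = 8 ∨ j = 12) := fun j => by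
    rw [hiff]
    rcases hq812 with rfl | rfl
    · rw [show ad 4 8 = 12 from rfl]
    · rw [show ad 4 12 = 8 from rfl]; tauto
  have hall : ∀ i j, i ≠ 0 → (R i j ↔ j ≠ 0 ∧ line i = line j) := by
    intro i j hi
    by_cases h4 : line i = 4
    · rw [h4, eq_comm, line_four]
      rcases (line_four i).1 h4 with rfl | rfl | rfl | rfl
      · exact absurd rfl hi
      all_goals
        first
          | rw [hR1]
          | rw [hR2]
          | rw [hR3]
        revert j
        decide
    · obtain ⟨h, hh4, hl⟩ := plane_all i h4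
      obtain ⟨q, hq, -, hqp⟩ := (inH_hT d h).symm d
      have e : R i j ↔ R 4 (q j) := by
        constructor
        · intro hh
          have := hRinv q hq _ _ hh
          rwa [← hh4, hqp] at this
        · intro hh
          have := hRinv _ (inH_hT d h) _ _ hh
          have hpq : hT h (q j) = j := (Function.LeftInverse.rightInverse_of_surjective hqp
            (Finite.injective_iff_surjective.1 ((inH_hT d h).inj d))) j
          rwa [hh4, hpq] at this
      rw [e, hR4, eq_comm (a := line i), hl, ← hh4]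
      have hpq : ∀ k, q j = k ↔ j = hT h k := fun k =>
        ⟨fun e' => by rw [← e', (Function.LeftInverse.rightInverse_of_surjective hqp
            (Finite.injective_iff_surjective.1 ((inH_hT d h).inj d))) j],
          fun e' => by rw [e', hqp]⟩
      simp only [hpq]
      refine ⟨fun hh => ⟨?_, hh⟩, fun hh => hh.2⟩
      rcases hh with rfl | rfl | rfl <;> exact fun e' =>
        absurd ((inH_hT d h).inj d (e'.trans ((inH_hT d h).zero d).symm)) (by decide)
  rw [← not_iff_not, not_not]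
  exact ⟨fun h => ((hall i j hi).1 ⟨hi, hj, h⟩).2, fun h => ((hall i j hi).2 ⟨hj, h⟩).2.2⟩

/-- The permutations induced by the normaliser respect the lines. -/
theorem InH.lines {p : Fin 16 → Fin 16} (hp : InH d p) (i j : Fin 16) (hi : i ≠ 0) (hj : j ≠ 0)
    (h : line i = line j) : line (p i) = line (p j) := by
  have hne : ∀ k, k ≠ 0 → p k ≠ 0 := fun k hk e => hk (hp.inj d (e.trans (hp.zero d).symm))
  by_contra hne'
  obtain ⟨q, hq, -, hqp⟩ := hp.symm d
  have := hq.good d _ _ ((good_iff d _ _ (hne i hi) (hne j hj)).2 hne')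
  rw [hqp, hqp] at this
  exact (good_iff d i j hi hj).1 this h

end CfsgLib.J3Unique
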